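import Mathlib
import Cfsg.Agent.Lib.CharDeep.ProjFin
import Cfsg.Agent.Lib.CharDeep.ProjDet

/-! Pulling an induced class function back along a homomorphism `f` with `G = H f(A)`
(restriction to a supplement, inflation along a surjection). -/

set_option autoImplicit false

namespace CfsgLib.Berger

open Cfsg CfsgLib.Char Finset
open scoped ComplexConjugate

variable {G A : Type*} [Group G] [Group A] [Fintype G] [Fintype A]

theorem sum_eq_of_supplement (H : Subgroup G) (f : A →* G)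
    (hf : ∀ g, ∃ h ∈ H, ∃ a, g = h * f a) {F : G → ℂ} (hF : ∀ h ∈ H, ∀ g, F (h * g) = F g) :
    (Nat.card (H.comap f) : ℂ) * ∑ g, F g = Nat.card H * ∑ a, F (f a) := by
  classical
  have h1 : ∑ x : H × A, F (x.1 * f x.2) = Nat.card H * ∑ a, F (f a) := by
    rw [Fintype.sum_prod_type]
    simp [hF]
  rw [← h1, sum_comp F fun x : H × A => (x.1 : G) * f x.2, mul_sum]
  symm
  refine sum_congr (eq_univ_of_forall fun g => ?_) fun g _ => ?_
  · obtain ⟨h, hh, a, rfl⟩ := hf g
    exact mem_image.mpr ⟨(⟨h, hh⟩, a), mem_univ _, rfl⟩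
  · obtain ⟨h, hh, a, rfl⟩ := hf g
    rw [nsmul_eq_mul, ← Fintype.card_subtype, ← Nat.card_eq_fintype_card]
    congr 2
    refine Nat.card_congr ⟨fun x => ⟨x.1.2 * a⁻¹, ?_⟩,
      fun c => ⟨(⟨h * (f c)⁻¹, H.mul_mem hh (H.inv_mem c.2)⟩, c * a), by simp⟩, fun x => ?_,
      fun c => by simp⟩
    · rw [Subgroup.mem_comap, map_mul, map_inv, eq_inv_mul_of_mul_eq x.2]
      simpa [mul_assoc] using H.mul_mem (H.inv_mem x.1.1.2) hh
    · ext
      · simp [← mul_assoc, mul_inv_eq_iff_eq_mul, x.2]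
      · simp

theorem indFun_comp (H : Subgroup G) (f : A →* G) (hf : ∀ g, ∃ h ∈ H, ∃ a, g = h * f a)
    {θ : H → ℂ} (hθ : IsClassFunction H θ) :
    (fun a => indFun H θ (f a)) = indFun (H.comap f) fun x => θ ⟨f x, x.2⟩ := by
  funext a
  have := sum_eq_of_supplement H f hf (F := fun g => extendByZero H θ (g * f a * g⁻¹))
    fun h hh g => by
      rw [← extendByZero_conj_of_mem H hθ hh (g * f a * g⁻¹)]
      simp [mul_assoc]
  rw [indFun_apply', indFun_apply', eq_inv_mul_iff_mul_eq₀ natCard_ne_zero, mul_left_comm, this,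
    inv_mul_cancel_left₀ natCard_ne_zero]
  refine sum_congr rfl fun b _ => ?_
  rw [← map_inv, ← map_mul, ← map_mul, extendByZero_eq_dite, extendByZero_eq_dite]
  rfl

theorem indFun_comp_surj (H : Subgroup G) (f : A →* G) (hf : Function.Surjective f)
    {θ : H → ℂ} (hθ : IsClassFunction H θ) :
    (fun a => indFun H θ (f a)) = indFun (H.comap f) fun x => θ ⟨f x, x.2⟩ :=
  indFun_comp H f (fun g => ⟨1, H.one_mem, by simpa [eq_comm] using hf g⟩) hθ

end CfsgLib.Berger
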